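import Cfsg.Agent.Lib.Tw3D4Max.Final
import Cfsg.Agent.Lib.Twisted.D4Torus

/-!
# Two generators for `³D₄(q)`
-/

set_option autoImplicit false
set_option maxRecDepth 1000000
set_option linter.unusedSectionVars false
set_option linter.unusedVariables false
set_option linter.unusedSimpArgs false

namespace Cfsg.Agent.Lib.Tw3D4Max

open Cfsg.Lie Cfsg.Agent.Lib.ChevBN.Elem Cfsg.Agent.Lib.ChevBN.Table Cfsg.Agent.Lib.ChevBN.Rel
open Cfsg.Agent.Lib.ChevBN.FastData Cfsg.Agent.Lib.ChevBN.Collect Cfsg.Agent.Lib.ChevBN.Opp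
open Cfsg.Agent.Lib.Twisted Cfsg.Agent.Lib.Twisted.D4
open Cfsg.Agent.Lib.Chevalley.Tbl.D4 (sys)
open Cfsg.Agent.Lib.Tw3D4 (pos_all)
open Cfsg.Agent.Lib.Chevalley.Reflect
open Cfsg.Agent.Lib.ChevBN.Monomial Cfsg.Agent.Lib.ChevBN.Pair Cfsg.Agent.Lib.ChevBN.Torus
open Cfsg.Agent.Lib.ChevBN.Core Cfsg.Agent.Lib.ChevBN.Stmts
open Cfsg.Agent.Lib.ChevOrder.Chev Cfsg.Agent.Lib.BNPair.Basic Cfsg.Agent.Lib.BNPair.Parabolic
open Cfsg.Agent.Lib.ChevBN.BruhatForm Cfsg.Agent.Lib.ChevBN.Fix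

variable {K : Type*} [Field K]

set_option quotPrecheck false in
/-- The root elements. -/
local notation "Xr" => X (sys (F := _)).toAddRel

/-- The Coxeter element. -/
noncomputable abbrev A0 : GL chevD4.Idx K := prodA sys [0, 2, 3, 1]

theorem A0_lt : ∀ i ∈ [0, 2, 3, 1], i < chevD4.rank := by decide

theorem A0_eq : (A0 : GL chevD4.Idx K) = Na * Nb := by
  simp [prodA, mul_assoc]

theorem a_pos {r r' : ℕ} (hr : r < chevD4.nroots) (h1 : [0, 2, 3, 1].foldr chevD4.reflectRoot r = r')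
    (h2 : sgn [0, 2, 3, 1] r = 1) (t : K) : A0 * Xr r t * A0⁻¹ = Xr r' t := by
  rw [cP [0, 2, 3, 1] A0_lt hr, h1, h2]
  simp

theorem a_neg {r r' : ℕ} (hr : r < chevD4.nroots) (h1 : [0, 2, 3, 1].foldr chevD4.reflectRoot r = r')
    (h2 : sgn [0, 2, 3, 1] r = -1) (t : K) : A0 * Xr r t * A0⁻¹ = Xr r' (-t) := by
  rw [cP [0, 2, 3, 1] A0_lt hr, h1, h2]
  simp

theorem a_23 (t : K) : A0 * Xr 23 t * A0⁻¹ = Xr 14 (-t) := a_neg (by decide +kernel) (by decide +kernel) (by decide +kernel) t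
theorem a_14 (t : K) : A0 * Xr 14 t * A0⁻¹ = Xr 1 t := a_pos (by decide +kernel) (by decide +kernel) (by decide +kernel) t
theorem a_1 (t : K) : A0 * Xr 1 t * A0⁻¹ = Xr 0 t := a_pos (by decide +kernel) (by decide +kernel) (by decide +kernel) t
theorem a_0 (t : K) : A0 * Xr 0 t * A0⁻¹ = Xr 9 (-t) := a_neg (by decide +kernel) (by decide +kernel) (by decide +kernel) t
theorem a_9 (t : K) : A0 * Xr 9 t * A0⁻¹ = Xr 22 t := a_pos (by decide +kernel) (by decide +kernel) (by decide +kernel) t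
theorem a_18 (t : K) : A0 * Xr 18 t * A0⁻¹ = Xr 17 t := a_pos (by decide +kernel) (by decide +kernel) (by decide +kernel) t
theorem a_13 (t : K) : A0 * Xr 13 t * A0⁻¹ = Xr 20 (-t) := a_neg (by decide +kernel) (by decide +kernel) (by decide +kernel) t
theorem a_12 (t : K) : A0 * Xr 12 t * A0⁻¹ = Xr 21 (-t) := a_neg (by decide +kernel) (by decide +kernel) (by decide +kernel) t
theorem a_19 (t : K) : A0 * Xr 19 t * A0⁻¹ = Xr 5 t := a_pos (by decide +kernel) (by decide +kernel) (by decide +kernel) t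
theorem a_16 (t : K) : A0 * Xr 16 t * A0⁻¹ = Xr 10 (-t) := a_neg (by decide +kernel) (by decide +kernel) (by decide +kernel) t
theorem a_15 (t : K) : A0 * Xr 15 t * A0⁻¹ = Xr 11 (-t) := a_neg (by decide +kernel) (by decide +kernel) (by decide +kernel) t

theorem xh_eq (φ : K →+* K) (t : K) : xh φ t = Xr 18 t * (Xr 13 (φ t) * Xr 12 (φ (φ t))) := by
  simp [xh, pr, X_zero]

theorem P0_eq (φ : K →+* K) (t : K) : pr φ 0 0 0 t 0 0 = Xr 17 t * (Xr 20 (-φ t) * Xr 21 (-φ (φ t))) := by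
  simp [pr, X_zero]

theorem Pc_eq (φ : K →+* K) (t : K) : pr φ 0 0 t 0 0 0 = Xr 19 t * (Xr 16 (-φ t) * Xr 15 (-φ (φ t))) := by
  simp [pr, X_zero]

theorem A0_xh (φ : K →+* K) (t : K) : A0 * xh φ t * A0⁻¹ = pr φ 0 0 0 t 0 0 := by
  rw [xh_eq, P0_eq, ← a_18, ← a_13, ← a_12]
  group

theorem A0_pc (φ : K →+* K) (c : K) : A0 * pr φ 0 0 c 0 0 0 * A0⁻¹ = w3 φ 5 10 11 c := by
  have e1 := a_16 (K := K) (-φ c)
  have e2 := a_15 (K := K) (-φ (φ c))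
  rw [neg_neg] at e1 e2
  rw [Pc_eq, w3, mul_one, ← a_19, ← e1, ← e2]
  group

/-- The torus element. -/
noncomputable def hT0 (φ : K →+* K) (ξ : K) : GL chevD4.Idx K :=
  Cfsg.Agent.Lib.Twisted.torJ (sys (F := K)).toAddRel [1, 0, 2, 3] (dP φ ξ 1)

/-- The character of the torus element. -/
noncomputable def kp (φ : K →+* K) (ξ : K) (r : ℕ) : K :=
  ([1, 0, 2, 3].map fun j => dP φ ξ 1 j ^ chevD4.cartan j r).prod

theorem dP_ne {φ : K →+* K} {ξ : K} (hξ : ξ ≠ 0) (j : ℕ) : dP φ ξ 1 j ≠ 0 := by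
  simp only [dP]
  split_ifs
  · exact one_ne_zero
  · exact hξ
  · simpa using hξ
  · simpa using hξ

theorem hT0_conj {φ : K →+* K} {ξ : K} (hξ : ξ ≠ 0) {r : ℕ} (hr : r < chevD4.nroots) (t : K) :
    hT0 φ ξ * Xr r t * (hT0 φ ξ)⁻¹ = Xr r (kp φ ξ r * t) :=
  Cfsg.Agent.Lib.Twisted.torJ_conj sys (by decide) (fun i _ => dP_ne hξ i) hr t

/-- The values of the character. -/
theorem kp_eval (φ : K →+* K) (ξ : K) (r : ℕ) :
    kp φ ξ r = ξ ^ chevD4.cartan 0 r * ((φ ξ) ^ chevD4.cartan 2 r * (φ (φ ξ)) ^ chevD4.cartan 3 r) := by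
  simp [kp, dP]

section Alg

theorem coprime_aux (k : ℕ) : Nat.Coprime ((k + 2) ^ 2 + (k + 2) - 1) ((k + 2) ^ 3 - 1) := by
  have e1 : (k + 2) ^ 2 + (k + 2) - 1 = (k + 1) * (k + 4) + 1 := by
    rw [Nat.sub_eq_iff_eq_add (by nlinarith)]
    ring
  have e2 : (k + 2) ^ 3 - 1 = (k + 1) * ((k + 1) * (k + 4) + 1 + 2) := by
    rw [Nat.sub_eq_iff_eq_add (Nat.one_le_pow _ _ (by omega))]
    ring
  rw [e1, e2]
  have h1 : Nat.Coprime ((k + 1) * (k + 4) + 1) (k + 1) := by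
    simp
  have h2 : Nat.Coprime ((k + 1) * (k + 4) + 1) ((k + 1) * (k + 4) + 1 + 2) := by
    have hodd : Odd ((k + 1) * (k + 4) + 1) := by
      rw [Nat.odd_add_one, Nat.not_odd_iff_even]
      rcases Nat.even_or_odd k with h | h
      · exact Even.mul_left (h.add (by decide)) _
      · exact Even.mul_right h.add_one _
    simpa using hodd.coprime_two_right
  exact Nat.Coprime.mul_right h1 h2

theorem pow_mod_aux {x : K} {N m : ℕ} (h : x ^ N = 1) : x ^ (m % N) = x ^ m := by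
  conv_rhs => rw [← Nat.div_add_mod m N, pow_add, pow_mul, h, one_pow, one_mul]

variable [Fintype K] {q : ℕ} {φ : K →+* K} (hφ : ∀ t, φ t = t ^ q) {ξ : K} (hξ : ξ ≠ 0)
  (hgen : ∀ y : K, y ≠ 0 → ∃ n : ℕ, y = ξ ^ n) (hM : ξ ^ (q ^ 3 - 1) = 1)
  (hord : ∀ n : ℕ, 0 < n → n < q ^ 3 - 1 → ξ ^ n ≠ 1)

include hφ in
theorem phi_xi (ξ : K) : φ ξ = ξ ^ q ∧ φ (φ ξ) = ξ ^ (q ^ 2) := by
  refine ⟨hφ ξ, ?_⟩
  rw [hφ, hφ, sq, pow_mul]

include hφ hξ hgen hM hord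

theorem pow_dvd_of (hq : 2 ≤ q) {m : ℕ} (h : ξ ^ m = 1) : q ^ 3 - 1 ∣ m := by
  have h2 : ξ ^ (m % (q ^ 3 - 1)) = 1 := by
    rw [pow_mod_aux hM, h]
  have hpos : 0 < q ^ 3 - 1 := by
    have : 2 ^ 3 ≤ q ^ 3 := Nat.pow_le_pow_left hq 3
    omega
  have hlt := Nat.mod_lt m hpos
  by_cases h0 : m % (q ^ 3 - 1) = 0
  · exact Nat.dvd_of_mod_eq_zero h0
  · exact absurd h2 (hord _ (Nat.pos_of_ne_zero h0) hlt)

/-- The norm of a generator generates the rational points. -/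
theorem norm_gen (hq : 2 ≤ q) {t : K} (ht : φ t = t) (ht0 : t ≠ 0) :
    ∃ n : ℕ, t = (ξ * φ ξ * φ (φ ξ)) ^ n := by
  obtain ⟨j, rfl⟩ := hgen t ht0
  have h1 : ξ ^ (j * (q - 1)) = 1 := by
    have h2 : (ξ ^ j) ^ q = ξ ^ j := by rw [← hφ, ht]
    have h5 : (ξ ^ j) ^ q = (ξ ^ j) ^ (q - 1) * ξ ^ j := by
      rw [← pow_succ]
      congr 1
      omega
    rw [h5] at h2
    have h3 : ξ ^ j ≠ 0 := pow_ne_zero _ hξ
    have h4 := mul_right_cancel₀ h3 (h2.trans (one_mul _).symm)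
    rwa [← pow_mul] at h4
  have h2 := pow_dvd_of hφ hξ hgen hM hord hq h1
  have e : q ^ 3 - 1 = (q - 1) * (q ^ 2 + q + 1) := by
    obtain ⟨k, rfl⟩ : ∃ k, q = k + 1 := ⟨q - 1, by omega⟩
    simp only [Nat.add_sub_cancel]
    rw [Nat.sub_eq_iff_eq_add (Nat.one_le_pow _ _ (by omega))]
    ring
  rw [e, mul_comm j] at h2
  have h3 : q ^ 2 + q + 1 ∣ j := Nat.dvd_of_mul_dvd_mul_left (by omega) h2
  obtain ⟨n, rfl⟩ := h3
  refine ⟨n, ?_⟩
  obtain ⟨p1, p2⟩ := phi_xi hφ ξ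
  rw [p2, p1, pow_mul]
  congr 1
  ring

/-- The element `ω⁻¹` generates the units. -/
theorem omega_gen (hq : 2 ≤ q) {y : K} (hy : y ≠ 0) : ∃ n : ℕ, y = (φ ξ * φ (φ ξ) * ξ⁻¹) ^ n := by
  obtain ⟨p1, p2⟩ := phi_xi hφ ξ
  have e1 : φ ξ * φ (φ ξ) * ξ⁻¹ = ξ ^ (q ^ 2 + q - 1) := by
    rw [p2, p1, mul_inv_eq_iff_eq_mul₀ hξ, ← pow_succ, ← pow_add]
    congr 1
    have : 1 ≤ q ^ 2 + q := by nlinarith
    omega
  rw [e1]
  obtain ⟨k, rfl⟩ : ∃ k, q = k + 2 := ⟨q - 2, by omega⟩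
  have hc := coprime_aux k
  have h1 : 1 < (k + 2) ^ 3 - 1 := by
    have : 2 ^ 3 ≤ (k + 2) ^ 3 := Nat.pow_le_pow_left (by omega) 3
    omega
  obtain ⟨m, -, hm⟩ := Nat.exists_mul_mod_eq_one_of_coprime hc h1
  have h2 : ξ = (ξ ^ ((k + 2) ^ 2 + (k + 2) - 1)) ^ m := by
    rw [← pow_mul, ← pow_mod_aux hM, hm, pow_one]
  obtain ⟨j, rfl⟩ := hgen y hy
  refine ⟨m * j, ?_⟩
  generalize ξ ^ ((k + 2) ^ 2 + (k + 2) - 1) = w at h2
  rw [pow_mul, ← h2]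

theorem omega_ne (hq : 2 ≤ q) {n : ℕ} (h0 : 0 < n) (h1 : n < q ^ 3 - 1) : (φ ξ * φ (φ ξ) * ξ⁻¹) ^ n ≠ 1 := by
  intro h
  obtain ⟨m, hm⟩ := omega_gen hφ hξ hgen hM hord hq hξ
  apply hord n h0 h1
  generalize φ ξ * φ (φ ξ) * ξ⁻¹ = w at h hm
  rw [hm, ← pow_mul, mul_comm, pow_mul, h, one_pow]

end Alg

section Pure

theorem mem_conj {S : Subgroup (GL chevD4.Idx K)} {x y : GL chevD4.Idx K} (hx : x ∈ S) (hy : y ∈ S) :
    x * y * x⁻¹ ∈ S :=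
  S.mul_mem (S.mul_mem hx hy) (S.inv_mem hx)

theorem X_pow_aux (r : ℕ) (t : K) (n : ℕ) : Xr r t ^ n = Xr r ((n : K) * t) := by
  induction n with
  | zero => simp
  | succ n ih =>
    rw [pow_succ, ih, X_mul]
    congr 1
    push_cast
    ring

theorem comm_22 (φ : K →+* K) (a t : K) : xh φ a * Xr 22 t = Xr 22 t * xh φ a := by
  have e := sw_22_12 t (φ (φ a)) (1 : GL chevD4.Idx K)
  rw [mul_one, mul_one] at e
  rw [xh_eq]
  simp only [mul_assoc]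
  rw [sw_22_18, sw_22_13, e]

theorem comm_9 (φ : K →+* K) (a t : K) : xh φ a * Xr 9 t = Xr 9 t * xh φ a := by
  have c1 := comm_p (K := K) (a := 9) (b := 18) (by decide +kernel) (by decide +kernel) (by decide)
    (by decide +kernel) (by decide +kernel) t a
  have c2 := comm_p (K := K) (a := 9) (b := 13) (by decide +kernel) (by decide +kernel) (by decide)
    (by decide +kernel) (by decide +kernel) t (φ a)
  have c3 := comm_p (K := K) (a := 9) (b := 12) (by decide +kernel) (by decide +kernel) (by decide)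
    (by decide +kernel) (by decide +kernel) t (φ (φ a))
  rw [xh_eq]
  exact ((c1.mul_right (c2.mul_right c3)).eq).symm

/-- The elements with only the last four coordinates. -/
noncomputable abbrev Pcd (φ : K →+* K) (c d : K) : GL chevD4.Idx K := pr φ 0 0 c d 0 0

theorem pr00_eq (φ : K →+* K) (c d e f : K) : pr φ 0 0 c d e f = Pcd φ c d * (Xr 22 e * Xr 23 f) := by
  simp [pr, X_zero, mul_assoc]

theorem tr2_fix {φ : K →+* K} (hφ3 : ∀ t, φ (φ (φ t)) = t) (d c : K) : φ (tr2 φ d c) = tr2 φ d c := by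
  simp only [tr2, map_add, map_mul, hφ3]
  ring

theorem Pcd_add {φ : K →+* K} (hφ3 : ∀ t, φ (φ (φ t)) = t) (c d c' d' : K) :
    Pcd φ c d * Pcd φ c' d' = Pcd φ (c + c') (d + d') * Xr 23 (tr2 φ d c') := by
  rw [pr0_mul hφ3 (map_zero φ), pr_X23 hφ3 (map_zero φ)]
  apply pr_congr <;> simp

theorem X14_split {φ : K →+* K} (hφ3 : ∀ t, φ (φ (φ t)) = t) {s : K} (hs : φ s = s) (c d e f : K) :
    Xr 14 s * pr φ 0 0 c d e f = pr φ 0 s c d e f := by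
  rw [X14_eq φ, pr0_mul hφ3 hs]
  apply pr_congr <;> simp [tr2]

theorem zz_pair {φ : K →+* K} (hφ3 : ∀ t, φ (φ (φ t)) = t) {s : K} (hs : φ s = s) (μ μ' : K) :
    ∃ e f, φ e = e ∧ φ f = f ∧ zz φ μ s * zz φ μ' (-s) =
      pr φ 0 0 ((μ' - μ) * s) ((φ μ * φ (φ μ) - φ μ' * φ (φ μ')) * s) e f := by
  refine ⟨(nrm φ μ' - nrm φ μ) * s, -(nrm φ μ * s * s) + -(nrm φ μ' * (-s) * (-s)) +
    tr2 φ (φ μ * φ (φ μ) * s) (-(μ' * (-s))) - (-(nrm φ μ * s)) * (-s), ?_, ?_, ?_⟩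
  · simp only [map_sub, map_mul, nrm_fix hφ3, hs]
  · simp only [map_sub, map_add, map_mul, map_neg, nrm_fix hφ3, hs, tr2_fix hφ3]
  · unfold zz
    rw [pr0_mul hφ3 hs]
    apply pr_congr <;> simp <;> ring

/-- The action of a fixed element of `H` on the elements `Pcd`. -/
theorem h_Pcd {φ : K →+* K} {h : GL chevD4.Idx K} {κ : ℕ → K} (h1 : ∀ r, chevD4.IsPosRoot r → κ (ρ0 r) = φ (κ r))
    (h2 : ∀ r < chevD4.nroots, ∀ t : K, h * Xr r t * h⁻¹ = Xr r (κ r * t)) (c d : K) :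
    h * Pcd φ c d * h⁻¹ = Pcd φ (κ 19 * c) (κ 17 * d) := by
  have c' : ∀ r < chevD4.nroots, ∀ t : K, MulAut.conj h (Xr r t) = Xr r (κ r * t) := fun r hr t => by
    rw [MulAut.conj_apply, h2 r hr t]
  have k16 : κ 16 = φ (κ 19) := by
    rw [← h1 19 (pos_all _ (by simp)), (by decide +kernel : ρ0 19 = 16)]
  have k15 : κ 15 = φ (φ (κ 19)) := by
    rw [← k16, ← h1 16 (pos_all _ (by simp)), (by decide +kernel : ρ0 16 = 15)]
  have k20 : κ 20 = φ (κ 17) := by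
    rw [← h1 17 (pos_all _ (by simp)), (by decide +kernel : ρ0 17 = 20)]
  have k21 : κ 21 = φ (φ (κ 17)) := by
    rw [← k20, ← h1 20 (pos_all _ (by simp)), (by decide +kernel : ρ0 20 = 21)]
  rw [← MulAut.conj_apply]
  simp only [pr, map_zero, neg_zero, X_zero, one_mul, map_mul, map_one, mul_one, map_neg]
  rw [c' 19 (by decide +kernel), c' 16 (by decide +kernel), c' 15 (by decide +kernel), c' 17 (by decide +kernel),
    c' 20 (by decide +kernel), c' 21 (by decide +kernel), k16, k15, k20, k21]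
  simp only [mul_neg]

theorem elim {φ : K →+* K} (hφ3 : ∀ t, φ (φ (φ t)) = t) {F : K → K → Prop}
    (hadd : ∀ a b c d, F a b → F c d → F (a + c) (b + d)) {w v A B : K}
    (hV : ∀ n : ℕ, ∀ s, φ s = s → F (w ^ n * A * s) (v ^ n * B * s)) :
    F (A * ((w - v) * (w - φ v) * (w - φ (φ v)))) 0 := by
  have e1 : φ (v + φ v + φ (φ v)) = v + φ v + φ (φ v) := by
    simp only [map_add, hφ3]
    ring
  have e2 : φ (v * φ v + v * φ (φ v) + φ v * φ (φ v)) = v * φ v + v * φ (φ v) + φ v * φ (φ v) := by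
    simp only [map_add, map_mul, hφ3]
    ring
  have e3 : φ (v * φ v * φ (φ v)) = v * φ v * φ (φ v) := by
    simp only [map_mul, hφ3]
    ring
  have t3 := hV 3 1 (map_one φ)
  have t2 := hV 2 (-(v + φ v + φ (φ v))) (by rw [map_neg, e1])
  have t1 := hV 1 _ e2
  have t0 := hV 0 (-(v * φ v * φ (φ v))) (by rw [map_neg, e3])
  have key := hadd _ _ _ _ (hadd _ _ _ _ (hadd _ _ _ _ t3 t2) t1) t0
  have e : A * ((w - v) * (w - φ v) * (w - φ (φ v))) = w ^ 3 * A * 1 + w ^ 2 * A * (-(v + φ v + φ (φ v))) +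
      w ^ 1 * A * (v * φ v + v * φ (φ v) + φ v * φ (φ v)) + w ^ 0 * A * (-(v * φ v * φ (φ v))) := by ring
  have e' : (0 : K) = v ^ 3 * B * 1 + v ^ 2 * B * (-(v + φ v + φ (φ v))) +
      v ^ 1 * B * (v * φ v + v * φ (φ v) + φ v * φ (φ v)) + v ^ 0 * B * (-(v * φ v * φ (φ v))) := by ring
  rw [e, e']
  exact key

end Pure

section KpVals

variable (φ : K →+* K) (ξ : K)

theorem kp_23 : kp φ ξ 23 = 1 := by
  rw [kp_eval, (by decide +kernel : chevD4.cartan 0 23 = 0), (by decide +kernel : chevD4.cartan 2 23 = 0),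
    (by decide +kernel : chevD4.cartan 3 23 = 0)]
  simp

theorem kp_22 : kp φ ξ 22 = ξ * φ ξ * φ (φ ξ) := by
  rw [kp_eval, (by decide +kernel : chevD4.cartan 0 22 = 1), (by decide +kernel : chevD4.cartan 2 22 = 1),
    (by decide +kernel : chevD4.cartan 3 22 = 1)]
  simp [mul_assoc]

theorem kp_9 : kp φ ξ 9 = ξ * φ ξ * φ (φ ξ) := by
  rw [kp_eval, (by decide +kernel : chevD4.cartan 0 9 = 1), (by decide +kernel : chevD4.cartan 2 9 = 1),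
    (by decide +kernel : chevD4.cartan 3 9 = 1)]
  simp [mul_assoc]

theorem kp_14 : kp φ ξ 14 = (ξ * φ ξ * φ (φ ξ))⁻¹ := by
  rw [kp_eval, (by decide +kernel : chevD4.cartan 0 14 = -1), (by decide +kernel : chevD4.cartan 2 14 = -1),
    (by decide +kernel : chevD4.cartan 3 14 = -1)]
  simp [mul_assoc, mul_inv, mul_comm, mul_left_comm]

theorem kp_18 : kp φ ξ 18 = ξ ^ 2 := by
  rw [kp_eval, (by decide +kernel : chevD4.cartan 0 18 = 2), (by decide +kernel : chevD4.cartan 2 18 = 0),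
    (by decide +kernel : chevD4.cartan 3 18 = 0)]
  simp [zpow_two, sq]

theorem kp_19 : kp φ ξ 19 = (φ ξ * φ (φ ξ) * ξ⁻¹)⁻¹ := by
  rw [kp_eval, (by decide +kernel : chevD4.cartan 0 19 = 1), (by decide +kernel : chevD4.cartan 2 19 = -1),
    (by decide +kernel : chevD4.cartan 3 19 = -1)]
  simp [mul_assoc, mul_inv, mul_comm, mul_left_comm]

theorem kp_17 : kp φ ξ 17 = φ ξ * φ (φ ξ) * ξ⁻¹ := by
  rw [kp_eval, (by decide +kernel : chevD4.cartan 0 17 = -1), (by decide +kernel : chevD4.cartan 2 17 = 1),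
    (by decide +kernel : chevD4.cartan 3 17 = 1)]
  simp [mul_assoc, mul_inv, mul_comm, mul_left_comm]

theorem kp_ne {φ : K →+* K} {ξ : K} (hξ : ξ ≠ 0) (r : ℕ) : kp φ ξ r ≠ 0 := by
  rw [kp_eval]
  have h1 : φ ξ ≠ 0 := (map_ne_zero φ).2 hξ
  have h2 : φ (φ ξ) ≠ 0 := (map_ne_zero φ).2 h1
  exact mul_ne_zero (zpow_ne_zero _ hξ) (mul_ne_zero (zpow_ne_zero _ h1) (zpow_ne_zero _ h2))

theorem hT0_pow {φ : K →+* K} {ξ : K} (hξ : ξ ≠ 0) {r : ℕ} (hr : r < chevD4.nroots) (n : ℕ) (t : K) :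
    hT0 φ ξ ^ n * Xr r t * (hT0 φ ξ ^ n)⁻¹ = Xr r (kp φ ξ r ^ n * t) := by
  induction n generalizing t with
  | zero => simp
  | succ n ih =>
    have e : hT0 φ ξ ^ (n + 1) * Xr r t * (hT0 φ ξ ^ (n + 1))⁻¹ =
        hT0 φ ξ * (hT0 φ ξ ^ n * Xr r t * (hT0 φ ξ ^ n)⁻¹) * (hT0 φ ξ)⁻¹ := by
      rw [pow_succ']
      group
    rw [e, ih, hT0_conj hξ hr, pow_succ']
    congr 1
    ring

theorem hT0_H {φ : K →+* K} {ξ : K} (hξ : ξ ≠ 0) : hT0 φ ξ ∈ chevD4.diagonalSubgroup K :=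
  torJ_mem_H sys tbl_chevD4 (J := [1, 0, 2, 3]) (by decide) (fun i _ => dP_ne hξ i)

theorem hT0_order [Fintype K] {φ : K →+* K} {ξ : K} (hξ : ξ ≠ 0) : hT0 φ ξ ^ (Fintype.card K - 1) = 1 := by
  refine H_eq_one (Subgroup.pow_mem _ (hT0_H hξ) _) fun i hi => ?_
  rw [hT0_pow hξ (tbl_chevD4.simple_lt hi), FiniteField.pow_card_sub_one_eq_one _ (kp_ne hξ _), mul_one]

/-- The first reduction. -/
theorem stage_zero [Fintype K] {φ : K →+* K} {ξ : K} (hξ : ξ ≠ 0) {S : Subgroup (GL chevD4.Idx K)}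
    (hb : Xr 23 1 * hT0 φ ξ ∈ S) : Xr 23 1 ∈ S ∧ hT0 φ ξ ∈ S := by
  have hc : Commute (Xr 23 (1 : K)) (hT0 φ ξ) := by
    have e := hT0_conj (φ := φ) hξ (r := 23) (by decide +kernel) 1
    rw [kp_23, one_mul] at e
    exact (mul_inv_eq_iff_eq_mul.1 e).symm
  have h1 := S.pow_mem hb (Fintype.card K - 1)
  rw [hc.mul_pow, hT0_order hξ, mul_one, X_pow_aux, Nat.cast_sub Fintype.card_pos, FiniteField.cast_card_eq_zero] at h1
  have h2 : Xr 23 (1 : K) ∈ S := by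
    have := S.inv_mem h1
    simpa using this
  refine ⟨h2, ?_⟩
  have := S.mul_mem (S.inv_mem h2) hb
  rwa [inv_mul_cancel_left] at this

end KpVals

section Main

variable [Fintype K] {q : ℕ} {φ : K →+* K} {T : Tw (sys (F := K)).toAddRel}
  (hφ : ∀ t, φ t = t ^ q) (hφ3 : ∀ t, φ (φ (φ t)) = t) (hρ : T.ρ = ρ0)
  (hτ : ∀ r t, T.τ r t = ((ε0 r : ℤ) : K) * φ t)
  (I : Inst sys tbl_chevD4 T Js cl (twistedD4 K q))

include hφ hφ3 hρ hτ I in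
theorem hT0_mem {ξ : K} (hξ : ξ ≠ 0) : hT0 φ ξ ∈ twistedD4 K q := by
  obtain ⟨h, e⟩ := exists_Θ hφ hφ3 hρ hτ I (Units.mk0 ξ hξ, 1)
  have e2 : hT0 φ ξ = h.1 := by
    rw [e]
    simp [hT0]
  rw [e2]
  exact h.2.2

/-- The subgroup of elements whose conjugate by `g⁻¹` lies in a given subgroup. -/
noncomputable def Sg (g : GL chevD4.Idx K) (S : Subgroup (GL chevD4.Idx K)) : Subgroup (GL chevD4.Idx K) :=
  S.comap (MulAut.conj g⁻¹).toMonoidHom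

omit [Fintype K] in
theorem mem_Sg {g y : GL chevD4.Idx K} {S : Subgroup (GL chevD4.Idx K)} : y ∈ Sg g S ↔ g⁻¹ * y * g ∈ S := by
  simp [Sg, Subgroup.mem_comap, MulAut.conj_apply]

omit [Fintype K] in
theorem Sg_comm {g y : GL chevD4.Idx K} {S : Subgroup (GL chevD4.Idx K)} (h : g * y = y * g) : y ∈ Sg g S ↔ y ∈ S := by
  rw [mem_Sg, mul_assoc, ← h, inv_mul_cancel_left]

omit [Fintype K] in
theorem chain {S' : Subgroup (GL chevD4.Idx K)} (hA : (A0 : GL chevD4.Idx K) ∈ S') {t : K} (ht : Xr 23 t ∈ S') :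
    Xr 14 (-t) ∈ S' ∧ Xr 9 t ∈ S' ∧ Xr 22 t ∈ S' := by
  have h14 : Xr 14 (-t) ∈ S' := by
    rw [← a_23]
    exact mem_conj hA ht
  have h1 : Xr 1 (-t) ∈ S' := by
    rw [← a_14]
    exact mem_conj hA h14
  have h0 : Xr 0 (-t) ∈ S' := by
    rw [← a_1]
    exact mem_conj hA h1
  have h9 : Xr 9 t ∈ S' := by
    have := mem_conj hA h0
    rwa [a_0, neg_neg] at this
  have h22 : Xr 22 t ∈ S' := by
    rw [← a_9]
    exact mem_conj hA h9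
  exact ⟨h14, h9, h22⟩

include hφ hφ3 in
theorem stageA (hq2 : 2 ≤ q) {ξ : K} (hξ : ξ ≠ 0)
    (hgen : ∀ y : K, y ≠ 0 → ∃ n : ℕ, y = ξ ^ n) (hM : ξ ^ (q ^ 3 - 1) = 1)
    (hord : ∀ n : ℕ, 0 < n → n < q ^ 3 - 1 → ξ ^ n ≠ 1)
    {S : Subgroup (GL chevD4.Idx K)} (hX : Xr 23 1 ∈ S) (hh : hT0 φ ξ ∈ S)
    (ha : (xh φ 1)⁻¹ * A0 * xh φ 1 ∈ S) :
    (∀ t, φ t = t → Xr 23 t ∈ S) ∧ (∀ t, φ t = t → Xr 22 t ∈ S) ∧ (∀ t, φ t = t → Xr 9 t ∈ S) ∧
      ∀ s, φ s = s → zz φ (-1) s ∈ S := by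
  have hA : (A0 : GL chevD4.Idx K) ∈ Sg (xh φ 1) S := mem_Sg.2 ha
  have c23 : ∀ t : K, xh φ 1 * Xr 23 t = Xr 23 t * xh φ 1 := fun t => X23_comm hφ3 (map_zero φ) _ _ _ _ _ _
  have hzz : ∀ s, φ s = s → Xr 23 (-s) ∈ S → zz φ (-1) s ∈ S := by
    intro s hs h23
    have h1 := (chain hA ((Sg_comm (c23 _)).2 h23)).1
    rw [neg_neg, mem_Sg] at h1
    rw [← zz_eq hφ3 hs, xh_inv hφ3, neg_neg, ← xh_inv hφ3]
    exact h1
  have h91 : Xr 9 (1 : K) ∈ S := (Sg_comm (comm_9 φ 1 1)).1 (chain hA ((Sg_comm (c23 _)).2 hX)).2.1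
  have h221 : Xr 22 (1 : K) ∈ S := (Sg_comm (comm_22 φ 1 1)).1 (chain hA ((Sg_comm (c23 _)).2 hX)).2.2
  have scale : ∀ r < chevD4.nroots, kp φ ξ r = ξ * φ ξ * φ (φ ξ) → Xr r (1 : K) ∈ S → ∀ t, φ t = t → Xr r t ∈ S := by
    intro r hr hk h1 t ht
    by_cases ht0 : t = 0
    · rw [ht0, X_zero]
      exact S.one_mem
    · obtain ⟨n, hn⟩ := norm_gen hφ hξ hgen hM hord hq2 ht ht0
      have e := hT0_pow (φ := φ) hξ hr n 1
      rw [hk, mul_one, ← hn] at e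
      rw [← e]
      exact mem_conj (S.pow_mem hh n) h1
  have h9 := scale 9 (by decide +kernel) (kp_9 φ ξ) h91
  have h22 := scale 22 (by decide +kernel) (kp_22 φ ξ) h221
  have hm1 : zz φ (-1) 1 ∈ S := by
    refine hzz 1 (map_one φ) ?_
    rw [← X_inv]
    exact S.inv_mem hX
  have h23 : ∀ t, φ t = t → Xr 23 t ∈ S := by
    intro t ht
    have e1 : Xr 22 (-t) * zz φ (-1) 1 * (Xr 22 (-t))⁻¹ = zz φ (-1) 1 * Xr 23 t := by
      rw [X22_eq φ, zz, w_conj hφ3 (map_zero φ) (map_one φ)]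
      simp [tr2]
    have e2 : Xr 23 t = (zz φ (-1) 1)⁻¹ * (Xr 22 (-t) * zz φ (-1) 1 * (Xr 22 (-t))⁻¹) := by
      rw [e1]
      simp
    rw [e2]
    exact S.mul_mem (S.inv_mem hm1) (mem_conj (h22 _ (by rw [map_neg, ht])) hm1)
  refine ⟨h23, h22, h9, fun s hs => hzz s hs (h23 _ (by rw [map_neg, hs]))⟩

include hφ hφ3 hρ hτ I in
theorem stageB (hq2 : 2 ≤ q) {ξ : K} (hξ : ξ ≠ 0)
    (hgen : ∀ y : K, y ≠ 0 → ∃ n : ℕ, y = ξ ^ n) (hM : ξ ^ (q ^ 3 - 1) = 1)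
    (hord : ∀ n : ℕ, 0 < n → n < q ^ 3 - 1 → ξ ^ n ≠ 1)
    {S : Subgroup (GL chevD4.Idx K)} (hh : hT0 φ ξ ∈ S)
    (h23 : ∀ t, φ t = t → Xr 23 t ∈ S) (h22 : ∀ t, φ t = t → Xr 22 t ∈ S)
    (hzz : ∀ s, φ s = s → zz φ (-1) s ∈ S) : ∀ c d, Pcd φ c d ∈ S := by
  have hhG := hT0_mem hφ hφ3 hρ hτ I hξ
  obtain ⟨κ, k0, k1, k2⟩ := H_data hρ hτ (hT0_H hξ) (I.fix hhG).2
  have kk : ∀ r, chevD4.IsPosRoot r → κ r = kp φ ξ r := by
    intro r hr
    have e := (k2 r hr.1 1).symm.trans (hT0_conj hξ hr.1 1)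
    have := X_inj sys tbl_chevD4 hr e
    simpa using this
  have hφξ : φ ξ ≠ 0 := (map_ne_zero φ).2 hξ
  have hφφξ : φ (φ ξ) ≠ 0 := (map_ne_zero φ).2 hφξ
  have hN0 : ξ * φ ξ * φ (φ ξ) ≠ 0 := mul_ne_zero (mul_ne_zero hξ hφξ) hφφξ
  have hNf : φ (ξ * φ ξ * φ (φ ξ)) = ξ * φ ξ * φ (φ ξ) := nrm_fix hφ3 ξ
  have k18 : κ 18 = ξ ^ 2 := (kk 18 (pos_all _ (by simp))).trans (kp_18 φ ξ)
  have k14 : κ 14 = (ξ * φ ξ * φ (φ ξ))⁻¹ := (kk 14 (pos_all _ (by simp))).trans (kp_14 φ ξ)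
  have k19 : κ 19 = (φ ξ * φ (φ ξ) * ξ⁻¹)⁻¹ := (kk 19 (pos_all _ (by simp))).trans (kp_19 φ ξ)
  have k17 : κ 17 = φ ξ * φ (φ ξ) * ξ⁻¹ := (kk 17 (pos_all _ (by simp))).trans (kp_17 φ ξ)
  have hugen : ∀ y : K, y ≠ 0 → ∃ n : ℕ, y = (φ ξ * φ (φ ξ) * ξ⁻¹) ^ n := fun y hy =>
    omega_gen hφ hξ hgen hM hord hq2 hy
  have hune : ∀ {n : ℕ}, 0 < n → n < q ^ 3 - 1 → (φ ξ * φ (φ ξ) * ξ⁻¹) ^ n ≠ 1 := fun h0 h1 =>
    omega_ne hφ hξ hgen hM hord hq2 h0 h1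
  have hu0 : φ ξ * φ (φ ξ) * ξ⁻¹ ≠ 0 := mul_ne_zero (mul_ne_zero hφξ hφφξ) (inv_ne_zero hξ)
  have s2 : q ^ 2 = q * q := sq q
  have s3 : q ^ 3 = q * q ^ 2 := by ring
  have s4 : 2 * q ^ 2 ≤ q ^ 3 := by
    rw [s3]
    exact Nat.mul_le_mul_right _ hq2
  have s5 : 2 * q ≤ q ^ 2 := by
    rw [s2]
    exact Nat.mul_le_mul_right _ hq2
  have s6 : 4 ≤ q ^ 2 := by omega
  have hx2 : ξ ^ 2 ≠ 1 := hord 2 (by norm_num) (by omega)
  have hx4 : ξ ^ 2 * ξ ^ 2 ≠ 1 := by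
    rw [← pow_add]
    exact hord _ (by norm_num) (by omega)
  have hx0 : ξ ^ 2 ≠ 0 := pow_ne_zero _ hξ
  obtain ⟨x, hx⟩ : ∃ x, x = ξ ^ 2 := ⟨_, rfl⟩
  rw [← hx] at k18 hx2 hx4 hx0
  obtain ⟨u, hu⟩ : ∃ u, u = φ ξ * φ (φ ξ) * ξ⁻¹ := ⟨_, rfl⟩
  rw [← hu] at k19 k17 hugen hune hu0
  -- the first family
  have hxz : ∀ s, φ s = s → zz φ (-x) s ∈ S := by
    intro s hs
    have hs' : φ ((ξ * φ ξ * φ (φ ξ)) * s) = (ξ * φ ξ * φ (φ ξ)) * s := by rw [map_mul, hNf, hs]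
    have e := h_zz hφ3 k1 k2 hs' (-1)
    rw [k18, k14, inv_mul_cancel_left₀ hN0, mul_neg, mul_one] at e
    rw [← e]
    exact mem_conj hh (hzz _ hs')
  have hrat : ∀ e f, φ e = e → φ f = f → ∀ c d, pr φ 0 0 c d e f ∈ S → Pcd φ c d ∈ S := by
    intro e f he hf c d hp
    rw [pr00_eq] at hp
    have := S.mul_mem hp (S.inv_mem (S.mul_mem (h22 e he) (h23 f hf)))
    rwa [mul_inv_cancel_right] at this
  have hP0 : ∀ s, φ s = s → Pcd φ ((x - 1) * s) ((φ x * φ (φ x) - 1) * s) ∈ S := by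
    intro s hs
    obtain ⟨e, f, he, hf, E⟩ := zz_pair hφ3 hs (-x) (-1)
    have m := S.mul_mem (hxz s hs) (hzz (-s) (by rw [map_neg, hs]))
    rw [E] at m
    have key := hrat e f he hf _ _ m
    have e1 : (-1 - -x) * s = (x - 1) * s := by ring
    have e2 : (φ (-x) * φ (φ (-x)) - φ (-1) * φ (φ (-1))) * s = (φ x * φ (φ x) - 1) * s := by
      simp
    rwa [e1, e2] at key
  have hPadd : ∀ a b c d, Pcd φ a b ∈ S → Pcd φ c d ∈ S → Pcd φ (a + c) (b + d) ∈ S := by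
    intro a b c d h1 h2
    have m := S.mul_mem h1 h2
    rw [Pcd_add hφ3 a b c d] at m
    have := S.mul_mem m (S.inv_mem (h23 _ (tr2_fix hφ3 b c)))
    rwa [mul_inv_cancel_right] at this
  have hPh : ∀ n : ℕ, ∀ c d, Pcd φ c d ∈ S → Pcd φ (u⁻¹ ^ n * c) (u ^ n * d) ∈ S := by
    intro n
    induction n with
    | zero =>
      intro c d hp
      simpa using hp
    | succ n ih =>
      intro c d hp
      have e := h_Pcd k1 k2 (u⁻¹ ^ n * c) (u ^ n * d)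
      rw [k19, k17] at e
      have m := mem_conj hh (ih c d hp)
      rw [e] at m
      have e1 : u⁻¹ * (u⁻¹ ^ n * c) = u⁻¹ ^ (n + 1) * c := by ring
      have e2 : u * (u ^ n * d) = u ^ (n + 1) * d := by ring
      rwa [e1, e2] at m
  have hPh' : ∀ n : ℕ, ∀ c d, Pcd φ c d ∈ S → Pcd φ (u ^ n * c) (u⁻¹ ^ n * d) ∈ S := by
    intro n
    induction n with
    | zero =>
      intro c d hp
      simpa using hp
    | succ n ih =>
      intro c d hp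
      have e := h_Pcd k1 k2 (u ^ (n + 1) * c) (u⁻¹ ^ (n + 1) * d)
      rw [k19, k17] at e
      have e1 : u⁻¹ * (u ^ (n + 1) * c) = u ^ n * c := by
        rw [pow_succ', mul_assoc, inv_mul_cancel_left₀ hu0]
      have e2 : u * (u⁻¹ ^ (n + 1) * d) = u⁻¹ ^ n * d := by
        rw [pow_succ', mul_assoc, mul_inv_cancel_left₀ hu0]
      rw [e1, e2] at e
      have e3 : Pcd φ (u ^ (n + 1) * c) (u⁻¹ ^ (n + 1) * d) =
          (hT0 φ ξ)⁻¹ * Pcd φ (u ^ n * c) (u⁻¹ ^ n * d) * hT0 φ ξ := by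
        rw [← e]
        group
      rw [e3]
      exact S.mul_mem (S.mul_mem (S.inv_mem hh) (ih c d hp)) hh
  have hV : ∀ n : ℕ, ∀ s, φ s = s →
      Pcd φ (u⁻¹ ^ n * (x - 1) * s) (u ^ n * (φ x * φ (φ x) - 1) * s) ∈ S := by
    intro n s hs
    have := hPh n _ _ (hP0 s hs)
    rwa [← mul_assoc, ← mul_assoc] at this
  have hC := elim hφ3 (F := fun a b => Pcd φ a b ∈ S) hPadd hV
  have hD := elim hφ3 (F := fun a b => Pcd φ b a ∈ S) (fun a b c d h1 h2 => hPadd _ _ _ _ h1 h2)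
    (w := u) (v := u⁻¹) (A := φ x * φ (φ x) - 1) (B := x - 1) (fun n s hs => hV n s hs)
  -- nonvanishing
  have hu2 : u * u ≠ 1 := by
    rw [← sq]
    exact hune (by norm_num) (by omega)
  have hu3 : u * φ u ≠ 1 := by
    rw [hφ u, ← pow_succ']
    exact hune (by omega) (by omega)
  have hu4 : u * φ (φ u) ≠ 1 := by
    rw [(phi_xi hφ u).2, ← pow_succ']
    exact hune (by omega) (by omega)
  have hφu : φ u ≠ 0 := (map_ne_zero φ).2 hu0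
  have hφφu : φ (φ u) ≠ 0 := (map_ne_zero φ).2 hφu
  have hc1 : x - 1 ≠ 0 := sub_ne_zero.2 hx2
  have hφx : φ x ≠ 0 := (map_ne_zero φ).2 hx0
  have hφφx : φ (φ x) ≠ 0 := (map_ne_zero φ).2 hφx
  have hd1 : φ x * φ (φ x) - 1 ≠ 0 := by
    intro h
    have h1 : φ x * φ (φ x) = 1 := sub_eq_zero.1 h
    have h2 : φ (φ x) * x = 1 := by
      have := congrArg φ h1
      rwa [map_mul, hφ3, map_one] at this
    have h3 : φ x = x := by
      have h4 : φ x * φ (φ x) = x * φ (φ x) := by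
        rw [h1, mul_comm, h2]
      exact mul_right_cancel₀ hφφx h4
    rw [h3, h3] at h1
    exact hx4 h1
  have hC0 : (x - 1) * ((u⁻¹ - u) * (u⁻¹ - φ u) * (u⁻¹ - φ (φ u))) ≠ 0 := by
    refine mul_ne_zero hc1 (mul_ne_zero (mul_ne_zero ?_ ?_) ?_)
    · intro h
      apply hu2
      rw [← sub_eq_zero.1 h]
      nth_rw 1 [sub_eq_zero.1 h]
      exact mul_inv_cancel₀ hu0
    · intro h
      apply hu3
      rw [← sub_eq_zero.1 h]
      exact mul_inv_cancel₀ hu0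
    · intro h
      apply hu4
      rw [← sub_eq_zero.1 h]
      exact mul_inv_cancel₀ hu0
  have hD0 : (φ x * φ (φ x) - 1) * ((u - u⁻¹) * (u - φ u⁻¹) * (u - φ (φ u⁻¹))) ≠ 0 := by
    refine mul_ne_zero hd1 (mul_ne_zero (mul_ne_zero ?_ ?_) ?_)
    · intro h
      apply hu2
      nth_rw 2 [sub_eq_zero.1 h]
      exact mul_inv_cancel₀ hu0
    · intro h
      apply hu3
      nth_rw 1 [sub_eq_zero.1 h]
      rw [← map_mul, inv_mul_cancel₀ hu0, map_one]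
    · intro h
      apply hu4
      nth_rw 1 [sub_eq_zero.1 h]
      rw [← map_mul, ← map_mul, inv_mul_cancel₀ hu0, map_one, map_one]
  -- all the elements
  have hAc : ∀ c, Pcd φ c 0 ∈ S := by
    intro c
    by_cases hc : c = 0
    · have e0 : Pcd φ 0 0 = 1 := pr_zero φ
      rw [hc, e0]
      exact S.one_mem
    · obtain ⟨n, hn⟩ := hugen (c * ((x - 1) * ((u⁻¹ - u) * (u⁻¹ - φ u) * (u⁻¹ - φ (φ u))))⁻¹)
        (mul_ne_zero hc (inv_ne_zero hC0))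
      have := hPh' n _ _ hC
      rw [← hn, mul_zero, inv_mul_cancel_right₀ hC0] at this
      exact this
  have hAd : ∀ d, Pcd φ 0 d ∈ S := by
    intro d
    by_cases hd : d = 0
    · have e0 : Pcd φ 0 0 = 1 := pr_zero φ
      rw [hd, e0]
      exact S.one_mem
    · obtain ⟨n, hn⟩ := hugen (d * ((φ x * φ (φ x) - 1) * ((u - u⁻¹) * (u - φ u⁻¹) * (u - φ (φ u⁻¹))))⁻¹)
        (mul_ne_zero hd (inv_ne_zero hD0))
      have := hPh n _ _ hD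
      rw [← hn, mul_zero, inv_mul_cancel_right₀ hD0] at this
      exact this
  intro c d
  have := hPadd _ _ _ _ (hAc c) (hAd d)
  rwa [add_zero, zero_add] at this

include hφ hφ3 in
theorem stageC {S : Subgroup (GL chevD4.Idx K)} (ha : (xh φ 1)⁻¹ * A0 * xh φ 1 ∈ S)
    (h23 : ∀ t, φ t = t → Xr 23 t ∈ S) (h22 : ∀ t, φ t = t → Xr 22 t ∈ S) (h9 : ∀ t, φ t = t → Xr 9 t ∈ S)
    (hzz : ∀ s, φ s = s → zz φ (-1) s ∈ S) (hP : ∀ c d, Pcd φ c d ∈ S) : twistedD4 K q ≤ S := by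
  have hA : (A0 : GL chevD4.Idx K) ∈ Sg (xh φ 1) S := mem_Sg.2 ha
  have hpr : ∀ c d e f, φ e = e → φ f = f → pr φ 0 0 c d e f ∈ S := by
    intro c d e f he hf
    rw [pr00_eq]
    exact S.mul_mem (hP c d) (S.mul_mem (h22 e he) (h23 f hf))
  have h14 : ∀ s, φ s = s → Xr 14 s ∈ S := by
    intro s hs
    have e1 := X14_split hφ3 hs (-(-1 * s)) (φ (-1) * φ (φ (-1)) * s) (-(nrm φ (-1) * s)) (-(nrm φ (-1) * s * s))
    have e2 : Xr 14 s = zz φ (-1) s * (pr φ 0 0 (-(-1 * s)) (φ (-1) * φ (φ (-1)) * s) (-(nrm φ (-1) * s)) (-(nrm φ (-1) * s * s)))⁻¹ := by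
      rw [zz, ← e1, mul_inv_cancel_right]
    rw [e2]
    refine S.mul_mem (hzz s hs) (S.inv_mem (hpr _ _ _ _ ?_ ?_))
    · simp only [map_neg, map_mul, nrm_fix hφ3, hs]
    · simp only [map_neg, map_mul, nrm_fix hφ3, hs]
  have hxh : ∀ t, xh φ t ∈ S := by
    intro t
    have hP0 : Pcd φ 0 t ∈ Sg (xh φ 1) S := by
      rw [mem_Sg]
      have e : (xh φ 1)⁻¹ * Pcd φ 0 t * xh φ 1 = pr φ 0 0 0 t (t + φ t + φ (φ t)) 0 := by
        rw [xh_inv hφ3, pr_mul φ hφ3 (map_zero φ), pr_mul φ hφ3 (by simp)]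
        apply pr_congr <;> simp [lawD, lawE, lawF]
      rw [e]
      refine hpr _ _ _ _ ?_ (map_zero φ)
      simp only [map_add, hφ3]
      ring
    have h1 : xh φ t = (A0)⁻¹ * Pcd φ 0 t * A0 := by
      have e2 : Pcd φ 0 t = A0 * xh φ t * A0⁻¹ := (A0_xh φ t).symm
      rw [e2]
      group
    have h2 : xh φ t ∈ Sg (xh φ 1) S := by
      rw [h1]
      exact (Sg (xh φ 1) S).mul_mem ((Sg (xh φ 1) S).mul_mem ((Sg (xh φ 1) S).inv_mem hA) hP0) hA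
    refine (Sg_comm ?_).1 h2
    rw [xh_mul hφ3, xh_mul hφ3, add_comm]
  have hg := hxh 1
  have hA0 : (A0 : GL chevD4.Idx K) ∈ S := by
    have := S.mul_mem (S.mul_mem hg ha) (S.inv_mem hg)
    have e : xh φ 1 * ((xh φ 1)⁻¹ * A0 * xh φ 1) * (xh φ 1)⁻¹ = A0 := by group
    rwa [e] at this
  refine (Subgroup.closure_le _).2 ?_
  intro g hg'
  rcases gen_form hφ hg' with ⟨t, ht, rfl | rfl⟩ | ⟨t, rfl | rfl⟩
  · exact h14 t ht
  · exact h9 t ht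
  · have e : w3 φ 18 13 12 t = xh φ t := by
      simp [w3, pr, X_zero]
    show w3 φ 18 13 12 t ∈ S
    rw [e]
    exact hxh t
  · show w3 φ 5 10 11 t ∈ S
    rw [← A0_pc]
    exact mem_conj hA0 (hP t 0)

include hφ hφ3 hρ hτ I in
/-- The group `³D₄(q)` is generated by two elements. -/
theorem two_gen_main (hq : IsPrimePow q) (hK : Fintype.card K = q ^ 3) :
    ∃ a b : ↥(twistedD4 K q), Subgroup.closure ({a, b} : Set ↥(twistedD4 K q)) = ⊤ := by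
  classical
  have hq2 := hq.two_le
  obtain ⟨ζ, hζ⟩ := IsCyclic.exists_generator (α := Kˣ)
  have hξ : (ζ : K) ≠ 0 := ζ.ne_zero
  have hgen : ∀ y : K, y ≠ 0 → ∃ n : ℕ, y = (ζ : K) ^ n := by
    intro y hy
    have h1 := hζ (Units.mk0 y hy)
    have h2 : Units.mk0 y hy ∈ Submonoid.powers ζ := mem_powers_iff_mem_zpowers.2 h1
    obtain ⟨n, hn⟩ := Submonoid.mem_powers_iff _ _ |>.1 h2
    refine ⟨n, ?_⟩
    have := congrArg Units.val hn
    simpa using this.symm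
  have hM : (ζ : K) ^ (q ^ 3 - 1) = 1 := by
    rw [← hK]
    exact FiniteField.pow_card_sub_one_eq_one _ hξ
  have hcard : orderOf ζ = q ^ 3 - 1 := by
    rw [orderOf_eq_card_of_forall_mem_zpowers hζ, Nat.card_eq_fintype_card, Fintype.card_units, hK]
  have hord : ∀ n : ℕ, 0 < n → n < q ^ 3 - 1 → (ζ : K) ^ n ≠ 1 := by
    intro n h0 h1 h
    have h2 : ζ ^ n = 1 := Units.ext (by simpa using h)
    have := orderOf_le_of_pow_eq_one h0 h2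
    omega
  have hgG : xh φ 1 ∈ twistedD4 K q := xh_mem hφ hφ3 hρ hτ I 1
  have hAG : (A0 : GL chevD4.Idx K) ∈ twistedD4 K q := by
    rw [A0_eq]
    exact Subgroup.mul_mem _ (W0_G I (Na_W0 I)) (W0_G I (Nb_W0 I))
  have hXG : Xr 23 (1 : K) ∈ twistedD4 K q := (X23_MM hφ hφ3 hρ hτ I (map_one φ)).1
  have hhG := hT0_mem hφ hφ3 hρ hτ I hξ
  let a : ↥(twistedD4 K q) := ⟨(xh φ 1)⁻¹ * A0 * xh φ 1,
    Subgroup.mul_mem _ (Subgroup.mul_mem _ (Subgroup.inv_mem _ hgG) hAG) hgG⟩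
  let b : ↥(twistedD4 K q) := ⟨Xr 23 1 * hT0 φ (ζ : K), Subgroup.mul_mem _ hXG hhG⟩
  refine ⟨a, b, ?_⟩
  let S : Subgroup (GL chevD4.Idx K) :=
    (Subgroup.closure ({a, b} : Set ↥(twistedD4 K q))).map (twistedD4 K q).subtype
  have ha : (xh φ 1)⁻¹ * A0 * xh φ 1 ∈ S :=
    ⟨a, Subgroup.subset_closure (by simp), rfl⟩
  have hb : Xr 23 1 * hT0 φ (ζ : K) ∈ S :=
    ⟨b, Subgroup.subset_closure (by simp), rfl⟩
  obtain ⟨hX, hh⟩ := stage_zero hξ hb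
  obtain ⟨h23, h22, h9, hzz⟩ := stageA hφ hφ3 hq2 hξ hgen hM hord hX hh ha
  have hP := stageB hφ hφ3 hρ hτ I hq2 hξ hgen hM hord hh h23 h22 hzz
  have hS := stageC hφ hφ3 ha h23 h22 h9 hzz hP
  rw [eq_top_iff]
  intro y _
  obtain ⟨z, hz, hzy⟩ := hS y.2
  have : z = y := Subtype.ext hzy
  rwa [← this]

end Main

end Cfsg.Agent.Lib.Tw3D4Max
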